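import Cfsg.Agent.H74.OCSpec
import Cfsg.Agent.H5.FrobCompl
import Cfsg.Agent.H5.FpfSolvable
import Cfsg.Agent.H4.HallBasic
import Cfsg.Agent.H2.MinNormal

/-! Tower OC, slot SOLb: a solvable group with element orders `1, ..., 6` has `O₅ ≠ 1`. -/

set_option autoImplicit false

namespace H52.OCSb

open Cfsg Subgroup H74.OC

universe u

/-- The Frobenius group of order `20` cannot act with both generators fixed point freely. -/
theorem ring5 {E : Type*} [Ring E] {a b : E} {k : ℕ} (hk : k = 2 ∨ k = 3) (h5 : a ^ 5 = 1)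
    (hb : b * a = a ^ k * b) (Na : 1 + a + a ^ 2 + a ^ 3 + a ^ 4 = 0)
    (Nb : b ^ 0 + b ^ 1 + b ^ 2 + b ^ 3 = 0) : (5 : E) = 0 := by
  have h1 : ∀ n, b * a ^ n = a ^ (k * n) * b := fun n => by
    induction n with
    | zero => simp
    | succ n ih => rw [pow_succ, ← mul_assoc, ih, mul_assoc, hb, ← mul_assoc, ← pow_add, mul_add, mul_one]
  have h2 : ∀ j n, b ^ j * a ^ n = a ^ (k ^ j * n) * b ^ j := fun j => by
    induction j with
    | zero => simp
    | succ j ih =>
      intro n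
      rw [pow_succ, mul_assoc, h1, ← mul_assoc, ih, mul_assoc, pow_succ k, mul_assoc (k ^ j)]
  have e : ∀ i j, a ^ i * b ^ j * a ^ (5 - i) = a ^ ((i + k ^ j * (5 - i)) % 5) * b ^ j := fun i j => by
    rw [mul_assoc, h2, ← mul_assoc, ← pow_add, ← pow_eq_pow_mod _ h5]
  have X : ∀ i, a ^ ((i + k ^ 0 * (5 - i)) % 5) * b ^ 0 + a ^ ((i + k ^ 1 * (5 - i)) % 5) * b ^ 1 +
      a ^ ((i + k ^ 2 * (5 - i)) % 5) * b ^ 2 + a ^ ((i + k ^ 3 * (5 - i)) % 5) * b ^ 3 = 0 := fun i => by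
    rw [← e, ← e, ← e, ← e, ← add_mul, ← add_mul, ← add_mul, ← mul_add, ← mul_add, ← mul_add, Nb,
      mul_zero, zero_mul]
  have X0 := X 0
  have X1 := X 1
  have X2 := X 2
  have X3 := X 3
  have X4 := X 4
  have s := congrArg₂ (· + ·) (congrArg₂ (· + ·) (congrArg₂ (· + ·) (congrArg₂ (· + ·) X0 X1) X2) X3) X4
  have t : (1 + a + a ^ 2 + a ^ 3 + a ^ 4) * (b + b ^ 2 + b ^ 3) = 0 := by rw [Na, zero_mul]
  rcases hk with rfl | rfl <;> norm_num at s <;> rw [← sub_eq_zero.2 (s.trans t.symm)] <;>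
    noncomm_ring <;> simp

theorem key {M : Type*} [AddCommGroup M] {a b : AddMonoid.End M} {k : ℕ} (h5 : a ^ 5 = 1)
    (h4 : b ^ 4 = 1) (fa : ∀ v, a v = v → v = 0) (fb : ∀ v, b v = v → v = 0)
    (hb : b * a = a ^ k * b) (hk : k = 2 ∨ k = 3 ∨ k = 4 ∧ b ^ 2 = 1) (h3 : ∀ v : M, 3 • v = 0)
    (v : M) : v = 0 := by
  have nm : ∀ x N : AddMonoid.End M, (∀ v, x v = v → v = 0) → x * N = N → N = 0 := fun x N f h =>
    AddMonoidHom.ext fun v => f _ (DFunLike.congr_fun h v)
  rcases or_assoc.2 hk with hk | ⟨rfl, h2⟩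
  · have := ring5 hk h5 hb (nm a _ fa (by rw [← sub_eq_zero, ← sub_eq_zero.2 h5]; noncomm_ring))
      (nm b _ fb (by rw [← sub_eq_zero, ← sub_eq_zero.2 h4]; noncomm_ring))
    have h : 5 • v = 0 := by simpa using DFunLike.congr_fun this v
    calc v = 2 • (3 • v) - 5 • v := by module
      _ = 0 := by rw [h3, h]; simp
  · have n : 1 + b = 0 := nm b _ fb (by rw [← sub_eq_zero, ← sub_eq_zero.2 h2]; noncomm_ring)
    have e : b = -1 := eq_neg_of_add_eq_zero_right n
    rw [e, neg_mul, mul_neg, neg_inj, one_mul, mul_one] at hb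
    have h2 : a ^ 2 = 1 := by rw [← h5, pow_succ a 4, ← hb, pow_two]
    have h : a = 1 := by rw [hb, show 4 = 2 * 2 from rfl, pow_mul, h2, one_pow]
    exact fa v (by rw [h]; rfl)

section
variable {G : Type u} [Group G] [Finite G]

theorem not_dvd_of_pow {N : Subgroup G} {p : ℕ} (hp : p.Prime) (h5 : p ≠ 5) (h : ∀ x ∈ N, x ^ p = 1) :
    ¬ 5 ∣ Nat.card N := fun hd => by
  have : Fact (Nat.Prime 5) := ⟨by norm_num⟩
  obtain ⟨x, hx⟩ := exists_prime_orderOf_dvd_card' 5 hd
  have : orderOf x ∣ p := orderOf_dvd_of_pow_eq_one (Subtype.ext (h x x.2))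
  rw [hx] at this
  exact h5 ((Nat.prime_dvd_prime_iff_eq (by norm_num) hp).1 this).symm

omit [Finite G] in
theorem pg_of_pow {N : Subgroup G} {p : ℕ} (h : ∀ x ∈ N, x ^ p = 1) : IsPGroup p N :=
  fun x => ⟨1, Subtype.ext (by rw [pow_one]; exact h x x.2)⟩

/-- an element of order five commutes with no nontrivial element of order prime to five -/
theorem fpf5 (h : Sp 6 G) {s x : G} (hs : orderOf s = 5) (hx : ¬ 5 ∣ orderOf x) (c : s * x = x * s) :
    x = 1 := by
  have := h.mul_le c (by rw [hs]; exact (Nat.Prime.coprime_iff_not_dvd (by norm_num)).2 hx)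
  have p := orderOf_pos x
  rw [hs] at this
  exact orderOf_eq_one_iff.1 (by omega)

theorem fpfR (h : Sp 6 G) {R : Subgroup G} (hR : ¬ 5 ∣ Nat.card R) {s : G} (hs : orderOf s = 5) :
    R ⊓ centralizer {s} = ⊥ := eq_bot_iff.2 fun _ hx =>
  fpf5 h hs (fun d => hR (d.trans (R.orderOf_dvd_natCard hx.1)))
    (mem_centralizer_singleton_iff.1 hx.2).symm

theorem not_25 (h : Sp 6 G) {R : Subgroup G} [R.Normal] (hR : ¬ 5 ∣ Nat.card R) (h0 : R ≠ ⊥) :
    ¬ 5 ^ 2 ∣ Nat.card G := fun hd => by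
  have : Fact (Nat.Prime 5) := ⟨by norm_num⟩
  obtain ⟨A, hA⟩ := Sylow.exists_subgroup_card_pow_prime 5 hd
  have o : ∀ a ∈ A, a ≠ 1 → orderOf a = 5 := fun a ha h1 => by
    have d := A.orderOf_dvd_natCard ha
    rw [hA] at d
    obtain ⟨i, hi, e⟩ := (Nat.dvd_prime_pow (by norm_num)).1 d
    have := h a
    have h2 := mt orderOf_eq_one_iff.1 h1
    interval_cases i <;> omega
  have c := H5.isCyclic_of_fpf_of_card_eq_mul h0 (A := A) (by rw [normalizer_eq_top]; exact le_top)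
    (fun a ha h1 => fpfR h hR (o a ha h1)) (p := 5) (q := 5) (by norm_num) (by norm_num) hA
  obtain ⟨g, hg⟩ := c.exists_ofOrder_eq_natCard
  have := h.sub A g
  omega

end

theorem jobSOLb : JobSOLb.{u} := by
  intro G _ _ hE hS
  have h := hE.sp
  have f5 : Fact (Nat.Prime 5) := ⟨by norm_num⟩
  have f3 : Fact (Nat.Prime 3) := ⟨by norm_num⟩
  obtain ⟨s0, hs0⟩ := hE.ex (k := 5) (by norm_num) (by norm_num)
  obtain ⟨t, ht⟩ := hE.ex (k := 3) (by norm_num) (by norm_num)
  obtain ⟨w, hw⟩ := hE.ex (k := 4) (by norm_num) (by norm_num)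
  have nt : Nontrivial G := ⟨s0, 1, fun e => by rw [e, orderOf_one] at hs0; omega⟩
  obtain ⟨N0, p, n0, b0, -, hp, -, e0, -⟩ := H4.exists_minimal_normal_elemab (⊤ : Subgroup G) top_ne_bot
  by_cases p5 : p = 5
  · exact ⟨N0, n0, p5 ▸ pg_of_pow e0, b0⟩
  exfalso
  obtain ⟨R, hR0, ⟨nR, hR⟩, mx⟩ := exists_maximal_ge_of_wellFoundedGT
    (P := fun N : Subgroup G => N.Normal ∧ ¬ 5 ∣ Nat.card N) N0 ⟨n0, not_dvd_of_pow hp p5 e0⟩
  have R0 : R ≠ ⊥ := fun e => b0 (eq_bot_iff.2 (e ▸ hR0))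
  have h25 := not_25 h hR R0
  let π := QuotientGroup.mk' R
  have hq := h.quot R
  have ntq : Nontrivial (G ⧸ R) := ⟨π s0, 1, fun e => hR (hs0 ▸ R.orderOf_dvd_natCard
    ((QuotientGroup.eq_one_iff s0).1 e))⟩
  obtain ⟨N, q, n1, b1, -, hq', -, e1, -⟩ :=
    H4.exists_minimal_normal_elemab (⊤ : Subgroup (G ⧸ R)) top_ne_bot
  obtain rfl : q = 5 := by
    by_contra q5
    have c : Nat.card (N.comap π) = Nat.card N * Nat.card R :=
      (QuotientGroup.card_preimage_mk R N).trans (mul_comm _ _)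
    have l := mx (y := N.comap π) ⟨n1.comap π, by
      rw [c, (Nat.Prime.dvd_mul (by norm_num))]
      exact not_or.2 ⟨not_dvd_of_pow hq' q5 e1, hR⟩⟩ (QuotientGroup.le_comap_mk' R N)
    refine b1 (eq_bot_iff.2 fun x hx => ?_)
    obtain ⟨y, rfl⟩ := QuotientGroup.mk'_surjective R x
    exact (QuotientGroup.eq_one_iff y).2 (l hx)
  obtain ⟨⟨sb, sN⟩, s1⟩ := ne_bot_iff_exists_ne_one.1 b1
  obtain ⟨s, rfl⟩ := QuotientGroup.mk'_surjective R sb
  have ob : orderOf (π s) = 5 := orderOf_eq_prime (e1 _ sN) fun e => s1 (Subtype.ext e)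
  have os : orderOf s = 5 := by
    have d := orderOf_map_dvd π s
    rw [ob] at d
    have := h s
    have := orderOf_pos s
    omega
  have zN : zpowers (π s) = N := by
    refine eq_of_le_of_card_ge (zpowers_le.2 sN) ?_
    obtain ⟨n, hn⟩ := (pg_of_pow e1).exists_card_eq
    have d : 5 ^ n ∣ Nat.card G := hn ▸ (N.card_subgroup_dvd_card).trans R.card_quotient_dvd_card
    have : n ≤ 1 := by
      by_contra! c
      exact h25 ((pow_dvd_pow 5 c).trans d)
    rw [Nat.card_zpowers, ob, hn]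
    interval_cases n <;> norm_num
  have act : ∀ g : G, ∃ k < 5, π g * π s = π s ^ k * π g := fun g => by
    obtain ⟨k, hk⟩ := (mem_powers_iff_mem_zpowers.2 (zN.ge (n1.conj_mem _ sN (π g))))
    refine ⟨k % 5, Nat.mod_lt _ (by norm_num), ?_⟩
    have hk : π s ^ k = π g * π s * (π g)⁻¹ := hk
    rw [← pow_eq_pow_mod k (e1 _ sN), hk, inv_mul_cancel_right]
  have cen : ∀ g : G, ¬ 5 ∣ orderOf g → π g * π s = π s * π g → g ∈ R := fun g hg c =>
    (QuotientGroup.eq_one_iff g).1 (fpf5 hq ob (fun d => hg (d.trans (orderOf_map_dvd π g))) c.symm)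
  have itr : ∀ (g : G) k, π g * π s = π s ^ k * π g → ∀ j, π g ^ j * π s = π s ^ (k ^ j % 5) * π g ^ j :=
    fun g k hk j => by
      rw [← pow_eq_pow_mod _ (e1 _ sN)]
      have h1 : ∀ j, SemiconjBy (π g ^ j) (π s) (π s ^ k ^ j) := fun j => by
        induction j with
        | zero => simp
        | succ j ih =>
          rw [pow_succ', pow_succ' k, pow_mul]
          exact ((show SemiconjBy (π g) (π s) (π s ^ k) from hk).pow_right _).mul_left ih
      exact h1 j
  have s1' : ∀ (g : G) k, π g * π s = π s ^ k * π g → k < 5 → k ≠ 1 → π g * π s ≠ π s * π g :=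
    fun g k hk h5 h1 e => by
      have := (pow_inj_mod (x := π s) (n := k) (m := 1)).1 (by
        rw [pow_one]; exact mul_right_cancel (hk.symm.trans e))
      rw [ob] at this
      omega
  have tR : t ∈ R := by
    obtain ⟨k, k5, hk⟩ := act t
    have h3 := itr t k hk 3
    rw [← map_pow, ← ht, pow_orderOf_eq_one, ht, map_one, one_mul, mul_one] at h3
    have := (pow_inj_mod (x := π s) (n := 1) (m := k ^ 3 % 5)).1 (by rw [pow_one]; exact h3)
    rw [ob] at this
    obtain rfl : k = 1 := by interval_cases k <;> omega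
    exact cen t (by rw [ht]; norm_num) (by rw [hk, pow_one])
  have nil : Group.IsNilpotent R := H5.isNilpotent_of_fpf_subgroup_of_isSolvable (H := zpowers s)
    (fun e => by
      have := Nat.card_zpowers s
      rw [e, os, card_bot] at this
      omega)
    (by rw [normalizer_eq_top]; exact le_top) fun a ha h1 => fpfR h hR (by
      have d := orderOf_dvd_of_mem_zpowers ha
      rw [os] at d
      exact ((Nat.dvd_prime (by norm_num)).1 d).resolve_left (mt orderOf_eq_one_iff.1 h1))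
  let V : Subgroup G :=
    { carrier := {v | v ∈ R ∧ (∀ r ∈ R, r * v = v * r) ∧ v ^ 3 = 1}
      one_mem' := ⟨R.one_mem, by simp, by simp⟩
      mul_mem' := fun {a b} ha hb => ⟨R.mul_mem ha.1 hb.1, fun r hr => by
        rw [← mul_assoc, ha.2.1 r hr, mul_assoc, hb.2.1 r hr, mul_assoc], by
        rw [(show Commute a b from hb.2.1 a ha.1).mul_pow, ha.2.2, hb.2.2, one_mul]⟩
      inv_mem' := fun {a} ha => ⟨R.inv_mem ha.1, fun r hr =>
        (show Commute r a from ha.2.1 r hr).inv_right, by rw [inv_pow, ha.2.2, inv_one]⟩ }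
  have nV : V.Normal := ⟨fun v hv g => ⟨nR.conj_mem v hv.1 g, fun r hr => by
    have := hv.2.1 _ (nR.conj_mem' r hr g)
    calc _ = g * (g⁻¹ * r * g * v) * g⁻¹ := by group
      _ = _ := by rw [this]; group, by rw [conj_pow, hv.2.2, mul_one, mul_inv_cancel]⟩⟩
  obtain ⟨v, vV, v1⟩ : ∃ v ∈ V, v ≠ 1 := by
    obtain ⟨P⟩ : Nonempty (Sylow 3 R) := inferInstance
    have nP : (P : Subgroup R).Normal := inferInstance
    have := H2.inf_center_ne_bot_of_isNilpotent (P : Subgroup R)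
      (P.ne_bot_of_dvd_card (ht ▸ R.orderOf_dvd_natCard tR))
    obtain ⟨⟨v, hv⟩, v1⟩ := ne_bot_iff_exists_ne_one.1 this
    refine ⟨v, ⟨v.2, fun r hr => congrArg Subtype.val (mem_center_iff.1 hv.2 ⟨r, hr⟩), ?_⟩,
      fun e => v1 (Subtype.ext (Subtype.ext e))⟩
    obtain ⟨n, hn⟩ := IsPGroup.iff_orderOf.1 P.2 ⟨v, hv.1⟩
    rw [orderOf_mk, ← orderOf_coe] at hn
    have l := h v
    have : n ≤ 1 := by
      by_contra! c
      have := Nat.pow_le_pow_right (show 0 < 3 by norm_num) c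
      omega
    refine orderOf_dvd_iff_pow_eq_one.1 ?_
    rw [hn]
    interval_cases n <;> norm_num
  let : CommGroup V := { mul_comm := fun a b => Subtype.ext (b.2.2.1 a a.2.1) }
  let ρ : G →* AddMonoid.End (Additive V) :=
    { toFun := fun g => MonoidHom.toAdditive (MulAut.conjNormal g : MulAut V).toMonoidHom
      map_one' := by rw [map_one]; rfl
      map_mul' := fun a b => by rw [map_mul]; rfl }
  have ρv : ∀ g (x : Additive V), ρ g x = x → g * x.toMul = x.toMul * g := fun g x e =>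
    mul_inv_eq_iff_eq_mul.1 (congrArg (fun y : Additive V => (y.toMul : G)) e)
  have ρR : ∀ a b : G, π a = π b → ρ a = ρ b := fun a b e => by
    obtain ⟨r, hr, rfl⟩ := (QuotientGroup.mk'_eq_mk' R).1 e
    have : ρ r = 1 := AddMonoidHom.ext fun x =>
      Subtype.ext (mul_inv_eq_iff_eq_mul.2 (x.toMul.2.2.1 r hr))
    rw [map_mul, this, mul_one]
  have o3 : ∀ x : Additive V, orderOf (x.toMul : G) ∣ 3 := fun x => orderOf_dvd_of_pow_eq_one x.toMul.2.2.2
  have fw : ∀ x, ρ w x = x → x = 0 := fun x e => by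
    have := h.mul_le (ρv w x e) (by rw [hw]; exact Nat.Coprime.coprime_dvd_right (o3 x) (by norm_num))
    have p := orderOf_pos (x.toMul : G)
    rw [hw] at this
    have e1 : orderOf (x.toMul : G) = 1 := by omega
    exact Subtype.ext (orderOf_eq_one_iff.1 e1)
  obtain ⟨k, k5, hk⟩ := act w
  refine v1 (congrArg (fun y : Additive V => (y.toMul : G)) (key (a := ρ s) (b := ρ w) (k := k)
    (by rw [← map_pow, ← os, pow_orderOf_eq_one, map_one])
    (by rw [← map_pow, ← hw, pow_orderOf_eq_one, map_one])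
    (fun x e => Subtype.ext (fpf5 h os (fun d => absurd (d.trans (o3 x)) (by norm_num)) (ρv s x e)))
    fw (by rw [← map_pow, ← map_mul, ← map_mul]; exact ρR _ _ (by simpa using hk)) ?_
    (fun x => Subtype.ext x.toMul.2.2.2) (Additive.ofMul ⟨v, vV⟩)))
  interval_cases k
  · rw [pow_zero, one_mul, mul_eq_left] at hk
    rw [hk, orderOf_one] at ob
    omega
  · have wR := cen w (by rw [hw]; norm_num) (by rw [hk, pow_one])
    have := fw (Additive.ofMul ⟨v, vV⟩) (Subtype.ext (mul_inv_eq_iff_eq_mul.2 (vV.2.1 w wR)))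
    exact absurd (congrArg (fun y : Additive V => (y.toMul : G)) this) v1
  · exact Or.inl rfl
  · exact Or.inr (Or.inl rfl)
  · have h2 := itr w 4 hk 2
    rw [← map_pow] at h2
    have wR := cen (w ^ 2) (fun d => absurd (d.trans (hw ▸ orderOf_pow_dvd 2)) (by norm_num))
      (by simpa using h2)
    refine Or.inr (Or.inr ⟨rfl, ?_⟩)
    rw [← map_pow, ρR _ 1 ((QuotientGroup.eq_one_iff _).2 wR), map_one]

end H52.OCSb
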